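import Cfsg.Agent.SmallOrder.NseAlt.Search
import Mathlib.Data.Nat.Totient

/-!
# From the set of class sizes to the order and the spectrum
-/

set_option autoImplicit false
set_option linter.unusedSectionVars false

namespace Cfsg.Agent.SmallOrder.NseAlt

/-- The totient of `p ^ a`. -/
def fp (p a : ℕ) : ℕ := if a = 0 then 1 else p ^ (a - 1) * (p - 1)

theorem totient_pp {p : ℕ} (hp : p.Prime) (a : ℕ) : (p ^ a).totient = fp p a := by
  rcases Nat.eq_zero_or_pos a with rfl | ha
  · simp [fp]
  · rw [Nat.totient_prime_pow hp ha, fp, if_neg ha.ne']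

/-- All possible element orders with their allowed counts are listed. -/
def coverOK (vals : List ℕ) (L : List (ℕ × List ℕ)) : Bool :=
  (List.range 9).all fun a => (List.range 9).all fun b => (List.range 9).all fun c => (List.range 9).all fun d =>
    let k := 2 ^ a * 3 ^ b * 5 ^ c * 7 ^ d
    let al := vals.filter fun v => v % (fp 2 a * fp 3 b * fp 5 c * fp 7 d) == 0
    k ≤ 2 || al.isEmpty || L.any fun e => e.1 == k && al.all fun v => e.2.any fun w => w == v

theorem eq_prod {k : ℕ} (hk : k ≠ 0) (h : ∀ p, p.Prime → p ∣ k → p ∈ [2, 3, 5, 7]) :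
    k = 2 ^ k.factorization 2 * 3 ^ k.factorization 3 * 5 ^ k.factorization 5 * 7 ^ k.factorization 7 := by
  refine Nat.eq_of_factorization_eq hk (by positivity) fun p => ?_
  rw [Nat.factorization_mul (by positivity) (by positivity), Nat.factorization_mul (by positivity) (by positivity),
    Nat.factorization_mul (by positivity) (by positivity), Nat.prime_two.factorization_pow,
    Nat.prime_three.factorization_pow, (by norm_num : Nat.Prime 5).factorization_pow,
    (by norm_num : Nat.Prime 7).factorization_pow]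
  simp only [Finsupp.add_apply, Finsupp.single_apply]
  by_cases hp : p.Prime ∧ p ∣ k
  · have := h p hp.1 hp.2
    simp only [List.mem_cons, List.not_mem_nil, or_false] at this
    rcases this with rfl | rfl | rfl | rfl <;> simp
  · have h0 : k.factorization p = 0 := by
      rcases not_and_or.1 hp with hp' | hp'
      · exact Nat.factorization_eq_zero_of_not_prime _ hp'
      · exact Nat.factorization_eq_zero_of_not_dvd hp'
    rw [h0]
    split_ifs <;> subst_vars <;> simp_all

variable {G : Type*} [Group G] [Finite G]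

theorem cnt_one : cnt G 1 = 1 := by
  rw [cnt, Nat.card_eq_one_iff_unique]
  exact ⟨⟨fun a b => Subtype.ext ((orderOf_eq_one_iff.1 a.2).trans (orderOf_eq_one_iff.1 b.2).symm)⟩,
    ⟨⟨1, orderOf_one⟩⟩⟩

theorem cnt_prime_add_one {p : ℕ} (hp : p.Prime) (hne : cnt G p ≠ 0) : p ∣ 1 + cnt G p := by
  classical
  haveI := Fintype.ofFinite G
  obtain ⟨g, hg⟩ := cnt_ne_zero.1 hne
  have h := Cfsg.Agent.FGS2.frobenius_solutions (G := G) _ rfl p (hg ▸ orderOf_dvd_natCard g)
  have he : Nat.card {g : G // g ^ p = 1} = 1 + cnt G p := by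
    rw [cnt, Nat.card_eq_fintype_card, Nat.card_eq_fintype_card, Fintype.card_subtype, Fintype.card_subtype]
    have : (Finset.univ.filter fun g : G => g ^ p = 1) = insert 1 (Finset.univ.filter fun g : G => orderOf g = p) := by
      ext g
      simp only [Finset.mem_filter, Finset.mem_univ, true_and, Finset.mem_insert]
      constructor
      · intro hg
        rcases (Nat.dvd_prime hp).1 (orderOf_dvd_of_pow_eq_one hg) with e | e
        · exact Or.inl (orderOf_eq_one_iff.1 e)
        · exact Or.inr e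
      · rintro (rfl | e)
        · exact one_pow p
        · rw [← e]; exact pow_orderOf_eq_one g
    rw [this, Finset.card_insert_of_notMem (by simp [orderOf_one, Ne.symm hp.ne_one]), add_comm]
  rwa [he] at h

/-- The order and the spectrum are determined. -/
theorem reduce (vals chk : List ℕ) (m2 : ℕ) (L : List (ℕ × List ℕ)) (tgt : List (ℕ × ℕ))
    (hm2 : m2 % 2 = 1) (hm21 : m2 ≠ 1) (hv : ∀ v ∈ vals, v % 2 = 0 ∧ 0 < v ∧ v < 147)
    (hpr : ∀ p < 148, p.Prime → ∀ v ∈ vals, v % (p - 1) = 0 → (1 + v) % p = 0 → p ∈ [2, 3, 5, 7])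
    (hcover : coverOK vals L = true)
    (hnd : ([1, 2] ++ L.map Prod.fst).Nodup) (hord : ([1, 2] ++ L.map Prod.fst).Pairwise fun a b => a % b ≠ 0)
    (hsearch : search vals chk tgt L [(1, 1), (2, m2)] = true)
    (hset : (fun m : ℕ => Nat.card {g : G // orderOf g = m}) '' Set.range (orderOf : G → ℕ) =
      {v | v = 1 ∨ v = m2 ∨ v ∈ vals}) :
    Nat.card G = dsum tgt 0 ∧ ∀ k, (∃ g : G, orderOf g = k) ↔ k ∈ tgt.map Prod.fst := by
  have hmem : ∀ k, cnt G k ≠ 0 → cnt G k = 1 ∨ cnt G k = m2 ∨ cnt G k ∈ vals := fun k hk => by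
    obtain ⟨g, hg⟩ := cnt_ne_zero.1 hk
    have h1 : cnt G k ∈ (fun m : ℕ => Nat.card {g : G // orderOf g = m}) '' Set.range (orderOf : G → ℕ) :=
      ⟨k, ⟨g, hg⟩, rfl⟩
    rw [hset] at h1
    exact h1
  have hatt : ∀ v, (v = 1 ∨ v = m2 ∨ v ∈ vals) → ∃ k, cnt G k = v ∧ v ≠ 0 := fun v hvm => by
    have h1 : v ∈ (fun m : ℕ => Nat.card {g : G // orderOf g = m}) '' Set.range (orderOf : G → ℕ) := by
      rw [hset]; exact hvm
    obtain ⟨k, -, hk⟩ := h1
    refine ⟨k, hk, ?_⟩
    rcases hvm with rfl | rfl | h'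
    · exact one_ne_zero
    · omega
    · exact (hv v h').2.1.ne'
  have hval : ∀ k, 2 < k → cnt G k ≠ 0 → cnt G k ∈ vals := fun k hk hne => by
    have he : Even (cnt G k) := even_iff_two_dvd.2 ((even_iff_two_dvd.1 (Nat.totient_even hk)).trans (totient_dvd_cnt k))
    rw [Nat.even_iff] at he
    rcases hmem k hne with e | e | e
    · omega
    · omega
    · exact e
  have h2 : cnt G 2 = m2 := by
    obtain ⟨k, hk, hne⟩ := hatt m2 (Or.inr (Or.inl rfl))
    rcases (show k = 0 ∨ k = 1 ∨ k = 2 ∨ 2 < k by omega) with rfl | rfl | rfl | hk2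
    · exfalso
      have : cnt G 0 = 0 := by
        by_contra h0
        obtain ⟨g, hg⟩ := cnt_ne_zero.1 h0
        exact (orderOf_pos g).ne' hg
      omega
    · rw [cnt_one] at hk; omega
    · exact hk
    · have := (hv _ (hval k hk2 (hk ▸ hne))).1
      omega
  have hp7 : ∀ p, p.Prime → p ∣ Nat.card G → p ∈ [2, 3, 5, 7] := fun p hp hpd => by
    haveI := Fact.mk hp
    obtain ⟨g, hg⟩ := exists_prime_orderOf_dvd_card' (G := G) p hpd
    rcases Nat.lt_or_ge 2 p with hlt | hle
    · have hne : cnt G p ≠ 0 := cnt_ne_zero.2 ⟨g, hg⟩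
      have hvv := hval p hlt hne
      have hd : p - 1 ∣ cnt G p := Nat.totient_prime hp ▸ totient_dvd_cnt p
      have hb := (hv _ hvv)
      have hle' := Nat.le_of_dvd hb.2.1 hd
      exact hpr p (by omega) hp _ hvv (Nat.mod_eq_zero_of_dvd hd) (Nat.mod_eq_zero_of_dvd (cnt_prime_add_one hp hne))
    · have := hp.two_le
      simp [show p = 2 by omega]
  have hcov : ∀ g : G, 2 < orderOf g → ∃ e ∈ L, e.1 = orderOf g ∧ cnt G e.1 ∈ e.2 := fun g hg2 => by
    set k := orderOf g with hk
    have hk0 : k ≠ 0 := by omega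
    have hdvd : ∀ p, p.Prime → p ∣ k → p ∈ [2, 3, 5, 7] := fun p hp hpk =>
      hp7 p hp (hpk.trans (orderOf_dvd_natCard g))
    have hke := eq_prod hk0 hdvd
    have hne : cnt G k ≠ 0 := cnt_ne_zero.2 ⟨g, rfl⟩
    have hvk := hval k hg2 hne
    have hφ : fp 2 (k.factorization 2) * fp 3 (k.factorization 3) * fp 5 (k.factorization 5) *
        fp 7 (k.factorization 7) = k.totient := by
      conv_rhs => rw [hke]
      rw [Nat.totient_mul (Nat.Coprime.mul_left (Nat.Coprime.mul_left (Nat.Coprime.pow _ _ (by norm_num))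
        (Nat.Coprime.pow _ _ (by norm_num))) (Nat.Coprime.pow _ _ (by norm_num))),
        Nat.totient_mul (Nat.Coprime.mul_left (Nat.Coprime.pow _ _ (by norm_num)) (Nat.Coprime.pow _ _ (by norm_num))),
        Nat.totient_mul (Nat.Coprime.pow _ _ (by norm_num)), totient_pp Nat.prime_two, totient_pp Nat.prime_three,
        totient_pp (by norm_num : Nat.Prime 5), totient_pp (by norm_num : Nat.Prime 7)]
    have hexp : ∀ p, p.Prime → k.factorization p < 9 := fun p hp => by
      by_contra hlt
      have h9 : p ^ 9 ∣ k := (hp.pow_dvd_iff_le_factorization hk0).2 (by omega)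
      have hne9 := cnt_ne_zero_of_dvd hne h9
      have h29 : 2 ^ 9 ≤ p ^ 9 := Nat.pow_le_pow_left hp.two_le 9
      have hv9 := hval (p ^ 9) (by omega) hne9
      have ht := totient_dvd_cnt (G := G) (p ^ 9)
      rw [Nat.totient_prime_pow hp (by norm_num)] at ht
      have h3 := Nat.le_of_dvd (hv _ hv9).2.1 ht
      have h28 : 2 ^ 8 ≤ p ^ 8 := Nat.pow_le_pow_left hp.two_le 8
      have hp1 : 1 ≤ p - 1 := by have := hp.two_le; omega
      have := Nat.mul_le_mul h28 hp1
      have := (hv _ hv9).2.2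
      simp only [Nat.add_one_sub_one] at h3
      omega
    simp only [coverOK, List.all_eq_true, List.mem_range, Bool.or_eq_true, decide_eq_true_eq, List.any_eq_true,
      List.isEmpty_iff, beq_iff_eq, Bool.and_eq_true] at hcover
    have hc := hcover _ (hexp 2 Nat.prime_two) _ (hexp 3 Nat.prime_three) _ (hexp 5 (by norm_num)) _
      (hexp 7 (by norm_num))
    rw [← hke, hφ] at hc
    have hin : cnt G k ∈ vals.filter fun v => v % k.totient == 0 :=
      List.mem_filter.2 ⟨hvk, beq_iff_eq.2 (Nat.mod_eq_zero_of_dvd (totient_dvd_cnt k))⟩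
    rcases hc with (hle | hemp) | ⟨e, he, hek, hall⟩
    · omega
    · rw [hemp] at hin; exact absurd hin List.not_mem_nil
    · obtain ⟨w, hw, hwe⟩ := hall _ hin
      exact ⟨e, he, hek, by rw [hek, ← hwe]; exact hw⟩
  have hsupp : ∀ g : G, orderOf g ∈ [1, 2] ++ L.map Prod.fst := fun g => by
    have := orderOf_pos g
    rcases (show orderOf g = 1 ∨ orderOf g = 2 ∨ 2 < orderOf g by omega) with e | e | e
    · simp [e]
    · simp [e]
    · obtain ⟨x, hx, hxe, -⟩ := hcov g e
      exact List.mem_append_right _ (List.mem_map.2 ⟨x, hx, hxe⟩)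
  have hallow : ∀ e ∈ L, cnt G e.1 ≠ 0 → cnt G e.1 ∈ e.2 := fun e he hne => by
    obtain ⟨g, hg⟩ := cnt_ne_zero.1 hne
    have hnodup : (L.map Prod.fst).Nodup := (List.nodup_append.1 hnd).2.1
    have he12 : 2 < e.1 := by
      have hd := (List.nodup_append.1 hnd).2.2
      have hmem' : e.1 ∈ L.map Prod.fst := List.mem_map.2 ⟨e, he, rfl⟩
      have := orderOf_pos g
      rcases (show e.1 = 1 ∨ e.1 = 2 ∨ 2 < e.1 by omega) with h' | h' | h'
      · exact absurd h'.symm (hd 1 (by simp) e.1 hmem')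
      · exact absurd h'.symm (hd 2 (by simp) e.1 hmem')
      · exact h'
    obtain ⟨x, hx, hxe, hxv⟩ := hcov g (by omega)
    have : x = e := List.inj_on_of_nodup_map hnodup hx he (hxe.trans hg)
    exact this ▸ hxv
  have hd := search_sound vals chk tgt L [1, 2] hnd hord hsupp hallow (fun v hvm => hatt v (Or.inr (Or.inr hvm))) hp7
    (by simpa [cnt_one, h2, List.filter_cons, show m2 ≠ 0 by omega] using hsearch)
  constructor
  · rw [← hd, dsum_filter, ← card_dvd_eq_dsum hnd hsupp 0]
    exact (Nat.card_congr (Equiv.subtypeUnivEquiv fun g => pow_zero g)).symm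
  · intro k
    rw [← hd, List.mem_map]
    constructor
    · intro hk
      have hne := cnt_ne_zero.2 hk
      obtain ⟨g, hg⟩ := hk
      exact ⟨(k, cnt G k), List.mem_filter.2 ⟨List.mem_map.2 ⟨k, hg ▸ hsupp g, rfl⟩, by simpa using hne⟩, rfl⟩
    · rintro ⟨e, he, rfl⟩
      obtain ⟨he1, he2⟩ := List.mem_filter.1 he
      obtain ⟨j, -, rfl⟩ := List.mem_map.1 he1
      exact cnt_ne_zero.1 (by simpa using he2)

end Cfsg.Agent.SmallOrder.NseAlt
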