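import Mathlib.GroupTheory.SpecificGroups.Alternating
import Cfsg.Agent.SmallOrder.NseAlt.Reduce

/-!
# The class sizes of `A₄`, `A₅`, `A₆`
-/

set_option autoImplicit false
set_option maxRecDepth 100000
set_option maxHeartbeats 2000000

namespace Cfsg.Agent.SmallOrder.NseAlt

open Finset in
theorem image_eq {G : Type*} [Group G] [Fintype G] [DecidableEq G] (os : List ℕ) (vs : List ℕ)
    (hexp : ∀ g : G, ∃ k ∈ os, g ^ k = 1 ∧ ∀ j ∈ os, j < k → g ^ j ≠ 1)
    (hmin : ∀ k ∈ os, 0 < k ∧ ∀ j, 0 < j → j < k → j ∣ k → j ∈ os)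
    (hcnt : ∀ k ∈ os, (univ.filter fun g : G => g ^ k = 1 ∧ ∀ j ∈ os, j < k → g ^ j ≠ 1).card ∈ vs)
    (hatt : ∀ v ∈ vs, ∃ k ∈ os, (univ.filter fun g : G => g ^ k = 1 ∧ ∀ j ∈ os, j < k → g ^ j ≠ 1).card = v)
    (hpos : ∀ v ∈ vs, 0 < v) :
    (fun m : ℕ => Nat.card {g : G // orderOf g = m}) '' Set.range (orderOf : G → ℕ) = {v | v ∈ vs} := by
  classical
  have key : ∀ k ∈ os, ∀ g : G, (g ^ k = 1 ∧ ∀ j ∈ os, j < k → g ^ j ≠ 1) ↔ orderOf g = k := by
    intro k hk g
    constructor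
    · rintro ⟨h1, h2⟩
      have hd := orderOf_dvd_of_pow_eq_one h1
      by_contra hne
      have hlt : orderOf g < k := lt_of_le_of_ne (Nat.le_of_dvd (hmin k hk).1 hd) hne
      exact h2 _ ((hmin k hk).2 _ (orderOf_pos g) hlt hd) hlt (pow_orderOf_eq_one g)
    · rintro rfl
      refine ⟨pow_orderOf_eq_one g, fun j hj hlt e => ?_⟩
      have := Nat.le_of_dvd (hmin j hj).1 (orderOf_dvd_of_pow_eq_one e)
      omega
  have hc : ∀ k ∈ os, Nat.card {g : G // orderOf g = k} =
      (univ.filter fun g : G => g ^ k = 1 ∧ ∀ j ∈ os, j < k → g ^ j ≠ 1).card := fun k hk => by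
    rw [Nat.card_eq_fintype_card, Fintype.card_subtype]
    exact congrArg Finset.card (Finset.filter_congr fun g _ => (key k hk g).symm)
  ext v
  constructor
  · rintro ⟨k, ⟨g, rfl⟩, rfl⟩
    obtain ⟨k, hk, hgk⟩ := hexp g
    have e := (key k hk g).1 hgk
    show Nat.card {x : G // orderOf x = orderOf g} ∈ vs
    rw [e, hc k hk]
    exact hcnt k hk
  · intro hv
    obtain ⟨k, hk, e⟩ := hatt v hv
    refine ⟨k, ?_, (hc k hk).trans e⟩
    obtain ⟨g, hg⟩ := Finset.card_pos.1 (e ▸ hpos v hv)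
    exact ⟨g, (key k hk g).1 (Finset.mem_filter.1 hg).2⟩

theorem image_four : (fun m : ℕ => Nat.card {g : ↥(alternatingGroup (Fin 4)) // orderOf g = m}) ''
    Set.range (orderOf : ↥(alternatingGroup (Fin 4)) → ℕ) = {v | v ∈ [1, 3, 8]} :=
  image_eq [1, 2, 3] [1, 3, 8] (by decide +kernel) (fun k hk => by
      simp only [List.mem_cons, List.not_mem_nil, or_false] at hk ⊢
      refine ⟨by omega, fun j h0 hlt hd => ?_⟩
      omega) (by decide +kernel) (by decide +kernel) (by decide)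

theorem image_five : (fun m : ℕ => Nat.card {g : ↥(alternatingGroup (Fin 5)) // orderOf g = m}) ''
    Set.range (orderOf : ↥(alternatingGroup (Fin 5)) → ℕ) = {v | v ∈ [1, 15, 20, 24]} :=
  image_eq [1, 2, 3, 5] [1, 15, 20, 24] (by decide +kernel) (fun k hk => by
      simp only [List.mem_cons, List.not_mem_nil, or_false] at hk ⊢
      refine ⟨by omega, fun j h0 hlt hd => ?_⟩
      rcases hk with rfl | rfl | rfl | rfl <;> interval_cases j <;> omega) (by decide +kernel) (by decide +kernel) (by decide)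

theorem image_six : (fun m : ℕ => Nat.card {g : ↥(alternatingGroup (Fin 6)) // orderOf g = m}) ''
    Set.range (orderOf : ↥(alternatingGroup (Fin 6)) → ℕ) = {v | v ∈ [1, 45, 80, 90, 144]} :=
  image_eq [1, 2, 3, 4, 5] [1, 45, 80, 90, 144] (by decide +kernel) (fun k hk => by
      simp only [List.mem_cons, List.not_mem_nil, or_false] at hk ⊢
      refine ⟨by omega, fun j h0 hlt hd => ?_⟩
      omega) (by decide +kernel) (by decide +kernel) (by decide)

end Cfsg.Agent.SmallOrder.NseAlt
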