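import Cfsg.Agent.SmallOrder.NseAlt.Reduce

/-!
# The numerical searches for the degrees 4, 5, 6
-/

set_option autoImplicit false
set_option maxRecDepth 100000

namespace Cfsg.Agent.SmallOrder.NseAlt

def chkList : List ℕ := [16, 27, 90, 63, 324, 150, 24, 40]

def list_four : List (ℕ × List ℕ) :=
  [(3, [8]), (4, [8]), (5, [8]), (6, [8]), (8, [8]), (10, [8]), (12, [8]), (15, [8]), (16, [8]), (20, [8]), (24, [8]), (30, [8])]

theorem cover_four : coverOK [8] list_four = true := by decide +kernel

theorem search_four : search [8] chkList [(1, 1), (2, 3), (3, 8)] list_four [(1, 1), (2, 3)] = true := by decide +kernel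

def list_five : List (ℕ × List ℕ) :=
  [(3, [20, 24]), (4, [20, 24]), (5, [20, 24]), (6, [20, 24]), (7, [24]), (8, [20, 24]), (9, [24]), (10, [20, 24]), (12, [20, 24]), (14, [24]), (15, [24]), (16, [24]), (18, [24]), (20, [24]), (21, [24]), (24, [24]), (25, [20]), (28, [24]), (30, [24]), (35, [24]), (36, [24]), (42, [24]), (45, [24]), (50, [20]), (56, [24]), (70, [24]), (72, [24]), (84, [24]), (90, [24])]

theorem cover_five : coverOK [20, 24] list_five = true := by decide +kernel

theorem search_five : search [20, 24] chkList [(1, 1), (2, 15), (3, 20), (5, 24)] list_five [(1, 1), (2, 15)] = true := by decide +kernel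

def list_six : List (ℕ × List ℕ) :=
  [(3, [80, 90, 144]), (4, [80, 90, 144]), (5, [80, 144]), (6, [80, 90, 144]), (7, [90, 144]), (8, [80, 144]), (9, [90, 144]), (10, [80, 144]), (12, [80, 144]), (14, [90, 144]), (15, [80, 144]), (16, [80, 144]), (18, [90, 144]), (20, [80, 144]), (21, [144]), (24, [80, 144]), (25, [80]), (27, [90, 144]), (28, [144]), (30, [80, 144]), (32, [80, 144]), (35, [144]), (36, [144]), (40, [80, 144]), (42, [144]), (45, [144]), (48, [80, 144]), (50, [80]), (54, [90, 144]), (56, [144]), (60, [80, 144]), (63, [144]), (70, [144]), (72, [144]), (75, [80]), (84, [144]), (90, [144]), (100, [80]), (105, [144]), (108, [144]), (112, [144]), (126, [144]), (135, [144]), (140, [144]), (144, [144]), (150, [80]), (168, [144]), (180, [144]), (200, [80]), (210, [144]), (216, [144]), (252, [144]), (270, [144]), (300, [80]), (315, [144]), (432, [144]), (504, [144]), (540, [144]), (630, [144])]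

theorem cover_six : coverOK [80, 90, 144] list_six = true := by decide +kernel

theorem search_six : search [80, 90, 144] chkList [(1, 1), (2, 45), (3, 80), (4, 90), (5, 144)] list_six [(1, 1), (2, 45)] = true := by decide +kernel

end Cfsg.Agent.SmallOrder.NseAlt
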