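import Mathlib.GroupTheory.Perm.Cycle.Type
import Mathlib.GroupTheory.SpecificGroups.Cyclic
import Mathlib.Tactic
import Cfsg.Agent.FGS2.FrobSolutions

/-!
# Reconstructing the numbers of elements of each order from the set of these numbers
-/

set_option autoImplicit false
set_option linter.unusedSectionVars false

namespace Cfsg.Agent.SmallOrder.NseAlt

/-- The sum of the values at the divisors of `n`. -/
def dsum : List (ℕ × ℕ) → ℕ → ℕ
  | [], _ => 0
  | e :: d, n => (if n % e.1 = 0 then e.2 else 0) + dsum d n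

/-- The quotients of `k` by its prime divisors carry a value. -/
def present (d : List (ℕ × ℕ)) (k : ℕ) : Bool :=
  [2, 3, 5, 7].all fun p => k % p != 0 || d.any fun e => e.1 == k / p

/-- The final numerical test. -/
def finalOK (vals chk : List ℕ) (d : List (ℕ × ℕ)) : Bool :=
  vals.all (fun v => d.any fun e => e.2 == v) &&
    d.all (fun e => dsum d 0 % e.1 == 0) &&
    chk.all (fun n => dsum d 0 % n != 0 || dsum d n % n == 0) &&
    [2, 3, 5, 7].all (fun p => dsum d 0 % p != 0 || d.any fun e => e.1 == p) &&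
    210 ^ dsum d 0 % dsum d 0 == 0

/-- Exhaustive search. -/
def search (vals chk : List ℕ) (tgt : List (ℕ × ℕ)) : List (ℕ × List ℕ) → List (ℕ × ℕ) → Bool
  | [], d => !(finalOK vals chk d) || d == tgt
  | (k, a) :: rest, d =>
    search vals chk tgt rest d &&
      (!(present d k) || a.all fun v => (dsum d k + v) % k != 0 || search vals chk tgt rest (d ++ [(k, v)]))

theorem dsum_append (d e : List (ℕ × ℕ)) (n : ℕ) : dsum (d ++ e) n = dsum d n + dsum e n := by
  induction d with
  | nil => simp [dsum]
  | cons a d ih => simp [dsum, ih, add_assoc]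

theorem dsum_eq_zero (d : List (ℕ × ℕ)) (n : ℕ) (h : ∀ e ∈ d, n % e.1 = 0 → e.2 = 0) : dsum d n = 0 := by
  induction d with
  | nil => rfl
  | cons a d ih =>
    rw [dsum, ih fun e he => h e (List.mem_cons_of_mem _ he), add_zero]
    split
    · exact h a (List.mem_cons_self ..) ‹_›
    · rfl

theorem dsum_filter (d : List (ℕ × ℕ)) (n : ℕ) : dsum (d.filter fun e => e.2 != 0) n = dsum d n := by
  induction d with
  | nil => rfl
  | cons a d ih =>
    by_cases ha : a.2 = 0
    · simp [dsum, ha, ih]
    · simp [dsum, ha, ih]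

variable {G : Type*} [Group G] [Finite G]

/-- The number of elements of order `k`. -/
noncomputable def cnt (G : Type*) [Group G] (k : ℕ) : ℕ := Nat.card {g : G // orderOf g = k}

theorem cnt_ne_zero {k : ℕ} : cnt G k ≠ 0 ↔ ∃ g : G, orderOf g = k := by
  rw [cnt, ← Nat.pos_iff_ne_zero, Nat.card_pos_iff]
  exact ⟨fun ⟨⟨g⟩, _⟩ => ⟨g.1, g.2⟩, fun ⟨g, hg⟩ => ⟨⟨⟨g, hg⟩⟩, inferInstance⟩⟩

theorem cnt_ne_zero_of_dvd {k j : ℕ} (h : cnt G k ≠ 0) (hj : j ∣ k) : cnt G j ≠ 0 := by
  obtain ⟨g, hg⟩ := cnt_ne_zero.1 h
  obtain ⟨c, hc⟩ := hj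
  refine cnt_ne_zero.2 ⟨g ^ c, ?_⟩
  have hpos := orderOf_pos g
  rw [hg, hc] at hpos
  have hc0 : c ≠ 0 := fun e => by simp [e] at hpos
  rw [orderOf_pow' g hc0, hg, hc, Nat.gcd_eq_right (dvd_mul_left c j), Nat.mul_div_cancel _ (Nat.pos_of_ne_zero hc0)]

theorem totient_dvd_cnt (k : ℕ) : k.totient ∣ cnt G k := by
  classical
  haveI := Fintype.ofFinite G
  haveI := Fintype.ofFinite (Subgroup G)
  have hsum := Finset.card_eq_sum_card_fiberwise (s := Finset.univ.filter fun g : G => orderOf g = k)
    (t := (Finset.univ : Finset (Subgroup G))) (f := fun g => Subgroup.zpowers g) (fun _ _ => Finset.mem_univ _)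
  rw [cnt, Nat.card_eq_fintype_card, Fintype.card_subtype, hsum]
  refine Finset.dvd_sum fun Z _ => ?_
  by_cases hZ : ∃ g₀, orderOf g₀ = k ∧ Subgroup.zpowers g₀ = Z
  · obtain ⟨g₀, hg₀, rfl⟩ := hZ
    have hcardZ : Fintype.card (Subgroup.zpowers g₀) = k := by rw [Fintype.card_zpowers, hg₀]
    have h1 := IsCyclic.card_orderOf_eq_totient (α := Subgroup.zpowers g₀) (d := k) (hcardZ ▸ dvd_rfl)
    refine dvd_of_eq (h1.symm.trans (Finset.card_bij (fun g _ => (g : G)) ?_ ?_ ?_))
    · intro g hg
      simp only [Finset.mem_filter, Finset.mem_univ, true_and] at hg ⊢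
      rw [Subgroup.orderOf_coe]
      refine ⟨hg, Subgroup.eq_of_le_of_card_ge (Subgroup.zpowers_le.2 g.2) ?_⟩
      rw [Nat.card_zpowers, Nat.card_zpowers, Subgroup.orderOf_coe, hg, hg₀]
    · intro a _ b _ e
      exact Subtype.ext e
    · intro g hg
      simp only [Finset.mem_filter, Finset.mem_univ, true_and] at hg
      refine ⟨⟨g, hg.2 ▸ Subgroup.mem_zpowers g⟩, ?_, rfl⟩
      simp only [Finset.mem_filter, Finset.mem_univ, true_and]
      rw [Subgroup.orderOf_mk, hg.1]
  · have : ((Finset.univ.filter fun g : G => orderOf g = k).filter fun g => Subgroup.zpowers g = Z) = ∅ := by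
      refine Finset.eq_empty_iff_forall_notMem.2 fun g hg => hZ ?_
      simp only [Finset.mem_filter, Finset.mem_univ, true_and] at hg
      exact ⟨g, hg⟩
    rw [this]; simp

theorem card_dvd_eq_dsum {K : List ℕ} (hK : K.Nodup) (hsupp : ∀ g : G, orderOf g ∈ K) (n : ℕ) :
    Nat.card {g : G // g ^ n = 1} = dsum (K.map fun k => (k, cnt G k)) n := by
  classical
  haveI := Fintype.ofFinite G
  have hsum := Finset.card_eq_sum_card_fiberwise (s := Finset.univ.filter fun g : G => g ^ n = 1)
    (t := K.toFinset) (f := fun g => orderOf g) (fun g _ => List.mem_toFinset.2 (hsupp g))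
  rw [Nat.card_eq_fintype_card, Fintype.card_subtype, hsum]
  have : ∀ L : List ℕ, L.Nodup → (L.toFinset.sum fun k =>
      ((Finset.univ.filter fun g : G => g ^ n = 1).filter fun g => orderOf g = k).card) =
        dsum (L.map fun k => (k, cnt G k)) n := by
    intro L
    induction L with
    | nil => simp [dsum]
    | cons a L ih =>
      intro hL
      rw [List.nodup_cons] at hL
      rw [List.toFinset_cons, Finset.sum_insert (fun e => hL.1 (List.mem_toFinset.1 e)), ih hL.2, List.map_cons, dsum]
      congr 1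
      rw [Finset.filter_filter]
      split
      · rw [cnt, Nat.card_eq_fintype_card, Fintype.card_subtype]
        congr 1
        ext g
        simp only [Finset.mem_filter, Finset.mem_univ, true_and]
        refine ⟨fun hg => hg.2, fun hg => ⟨?_, hg⟩⟩
        rw [← orderOf_dvd_iff_pow_eq_one, hg]
        exact Nat.dvd_of_mod_eq_zero ‹_›
      · rw [Finset.card_eq_zero, Finset.eq_empty_iff_forall_notMem]
        intro g hg
        simp only [Finset.mem_filter, Finset.mem_univ, true_and] at hg
        rename_i hna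
        exact hna (Nat.mod_eq_zero_of_dvd (hg.2 ▸ orderOf_dvd_of_pow_eq_one hg.1))
  exact this K hK

/-- Soundness of the search. -/
theorem search_sound (vals chk : List ℕ) (tgt : List (ℕ × ℕ)) (L : List (ℕ × List ℕ)) (K₀ : List ℕ)
    (hnd : (K₀ ++ L.map Prod.fst).Nodup)
    (hord : (K₀ ++ L.map Prod.fst).Pairwise fun a b => a % b ≠ 0)
    (hsupp : ∀ g : G, orderOf g ∈ K₀ ++ L.map Prod.fst)
    (hallow : ∀ e ∈ L, cnt G e.1 ≠ 0 → cnt G e.1 ∈ e.2)
    (hvals : ∀ v ∈ vals, ∃ k, cnt G k = v ∧ v ≠ 0)
    (hprime : ∀ p, p.Prime → p ∣ Nat.card G → p ∈ [2, 3, 5, 7])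
    (h : search vals chk tgt L ((K₀.map fun k => (k, cnt G k)).filter fun e => e.2 != 0) = true) :
    ((K₀ ++ L.map Prod.fst).map fun k => (k, cnt G k)).filter (fun e => e.2 != 0) = tgt := by
  induction L generalizing K₀ with
  | nil =>
    simp only [List.map_nil, List.append_nil] at hnd hord hsupp ⊢
    set d := (K₀.map fun k => (k, cnt G k)).filter fun e => e.2 != 0 with hd
    have hdsum := card_dvd_eq_dsum hnd hsupp
    have htot : dsum d 0 = Nat.card G := by
      rw [hd, dsum_filter, ← hdsum 0]; exact Nat.card_congr (Equiv.subtypeUnivEquiv fun g => pow_zero g)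
    have hmem : ∀ k, cnt G k ≠ 0 → (k, cnt G k) ∈ d := fun k hk => by
      obtain ⟨g, hg⟩ := cnt_ne_zero.1 hk
      exact List.mem_filter.2 ⟨List.mem_map.2 ⟨k, hg ▸ hsupp g, rfl⟩, by simpa using hk⟩
    have hOK : finalOK vals chk d = true := by
      simp only [finalOK, Bool.and_eq_true, List.all_eq_true, List.any_eq_true, Bool.or_eq_true, beq_iff_eq,
        bne_iff_ne, ne_eq, htot]
      refine ⟨⟨⟨⟨fun v hv => ?_, fun e he => ?_⟩, fun m _ => ?_⟩, fun p hp => ?_⟩, ?_⟩
      · obtain ⟨k, hk, hv0⟩ := hvals v hv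
        exact ⟨(k, cnt G k), hmem k (hk ▸ hv0), hk⟩
      · obtain ⟨he1, he2⟩ := List.mem_filter.1 he
        obtain ⟨k, -, rfl⟩ := List.mem_map.1 he1
        obtain ⟨g, hg⟩ := cnt_ne_zero.1 (show cnt G k ≠ 0 by simpa using he2)
        exact Nat.mod_eq_zero_of_dvd (hg ▸ orderOf_dvd_natCard g)
      · by_cases hm : Nat.card G % m = 0
        · refine Or.inr (Nat.mod_eq_zero_of_dvd ?_)
          rw [hd, dsum_filter, ← hdsum m]
          exact Cfsg.Agent.FGS2.frobenius_solutions _ rfl m (Nat.dvd_of_mod_eq_zero hm)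
        · exact Or.inl hm
      · by_cases hm : Nat.card G % p = 0
        · have hpp : p.Prime := by
            simp only [List.mem_cons, List.not_mem_nil, or_false] at hp
            rcases hp with rfl | rfl | rfl | rfl <;> norm_num
          haveI := Fact.mk hpp
          obtain ⟨g, hg⟩ := exists_prime_orderOf_dvd_card' (G := G) p (Nat.dvd_of_mod_eq_zero hm)
          have hne : cnt G p ≠ 0 := cnt_ne_zero.2 ⟨g, hg⟩
          exact Or.inr ⟨(p, cnt G p), hmem p hne, rfl⟩
        · exact Or.inl hm
      · refine Nat.mod_eq_zero_of_dvd ?_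
        rw [Nat.dvd_iff_prime_pow_dvd_dvd]
        intro p e hp hpe
        rcases Nat.eq_zero_or_pos e with rfl | he
        · simp
        have hp7 := hprime p hp ((dvd_pow_self p he.ne').trans hpe)
        have hle : e ≤ Nat.card G :=
          (Nat.lt_pow_self hp.one_lt).le.trans (Nat.le_of_dvd Nat.card_pos hpe)
        refine (pow_dvd_pow p hle).trans (pow_dvd_pow_of_dvd ?_ _)
        simp only [List.mem_cons, List.not_mem_nil, or_false] at hp7
        rcases hp7 with rfl | rfl | rfl | rfl <;> norm_num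
    simp only [search, Bool.or_eq_true, hOK, Bool.not_true, Bool.false_eq_true, false_or, beq_iff_eq] at h
    exact h
  | cons a L ih =>
    obtain ⟨k, al⟩ := a
    have hsplit : K₀ ++ List.map Prod.fst ((k, al) :: L) = (K₀ ++ [k]) ++ L.map Prod.fst := by simp
    rw [hsplit] at hnd hord hsupp ⊢
    refine ih (K₀ ++ [k]) hnd hord hsupp (fun e he => hallow e (List.mem_cons_of_mem _ he)) ?_
    simp only [search, Bool.and_eq_true, Bool.or_eq_true, List.all_eq_true] at h
    by_cases hk : cnt G k = 0
    · have h1 := h.1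
      rw [List.map_append, List.map_cons, List.map_nil, hk, List.filter_append]
      simpa using h1
    rcases h.2 with hp | hall
    · exfalso
      have hpres : present ((K₀.map fun j => (j, cnt G j)).filter fun e => e.2 != 0) k = true := by
        simp only [present, List.all_eq_true, Bool.or_eq_true, bne_iff_ne, ne_eq, List.any_eq_true, beq_iff_eq]
        intro p hp
        by_cases hpk : k % p = 0
        · have hp2 : 2 ≤ p := by
            simp only [List.mem_cons, List.not_mem_nil, or_false] at hp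
            omega
          have hdv : k / p ∣ k := Nat.div_dvd_of_dvd (Nat.dvd_of_mod_eq_zero hpk)
          have hne := cnt_ne_zero_of_dvd hk hdv
          obtain ⟨g, hg⟩ := cnt_ne_zero.1 hne
          obtain ⟨g', hg'⟩ := cnt_ne_zero.1 hk
          have hlt : k / p < k := Nat.div_lt_self (hg' ▸ orderOf_pos g') hp2
          have hin := hsupp g
          rw [hg, List.mem_append, List.mem_append, List.mem_singleton] at hin
          rcases hin with (hin | hin) | hin
          · exact Or.inr ⟨(k / p, cnt G (k / p)), List.mem_filter.2 ⟨List.mem_map.2 ⟨_, hin, rfl⟩, by simpa using hne⟩, rfl⟩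
          · omega
          · exact absurd (Nat.mod_eq_zero_of_dvd hdv) ((List.pairwise_append.1 hord).2.2 k (by simp) _ hin)
        · exact Or.inl hpk
      rw [hpres, Bool.not_true] at hp
      exact Bool.false_ne_true hp
    rcases hall (cnt G k) (hallow (k, al) (List.mem_cons_self ..) hk) with hne | hs
    · exfalso
      rw [bne_iff_ne] at hne
      apply hne
      refine Nat.mod_eq_zero_of_dvd ?_
      obtain ⟨g, hg⟩ := cnt_ne_zero.1 hk
      have h2 := card_dvd_eq_dsum hnd hsupp k
      rw [List.map_append, dsum_append, List.map_append, dsum_append] at h2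
      have hpost : dsum (List.map (fun j => (j, cnt G j)) (L.map Prod.fst)) k = 0 := by
        refine dsum_eq_zero _ _ fun e he hek => ?_
        obtain ⟨j, hj, rfl⟩ := List.mem_map.1 he
        exact absurd hek ((List.pairwise_append.1 hord).2.2 k (by simp) j hj)
      have hone : dsum [(k, cnt G k)] k = cnt G k := by simp [dsum]
      rw [hpost, add_zero, List.map_cons, List.map_nil, hone] at h2
      rw [dsum_filter]
      rw [← h2]
      exact Cfsg.Agent.FGS2.frobenius_solutions _ rfl k (hg ▸ orderOf_dvd_natCard g)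
    · rw [List.map_append, List.map_cons, List.map_nil, List.filter_append]
      simpa [hk] using hs

end Cfsg.Agent.SmallOrder.NseAlt
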